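import Mathlib
import Cfsg.Agent.Lib.Perm.PermCharMat

/-!
# The centre of the centraliser ring of a permutation group; semicontinuity of the rank
-/

set_option autoImplicit false

namespace CfsgLib.St
open Cfsg CfsgLib.Char CfsgLib.Perm Matrix Polynomial
open scoped ComplexConjugate

theorem exists_mul_mul_eq_one {m n : Type*} [Fintype m] [Fintype n] [DecidableEq m] [DecidableEq n]
    (A : Matrix m n ℂ) : ∃ (P : Matrix (Fin A.rank) m ℂ) (Q : Matrix n (Fin A.rank) ℂ),
      P * A * Q = 1 := by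
  let b := Module.finBasisOfFinrankEq ℂ (LinearMap.range A.mulVecLin) (n := A.rank) rfl
  obtain ⟨p, hp⟩ := LinearMap.exists_extend b.equivFun.toLinearMap
  choose q hq using fun i => (b i).2
  refine ⟨LinearMap.toMatrix' p, Matrix.of fun j i => q i j, ?_⟩
  ext i j
  have h1 : (A * Matrix.of fun j i => q i j).col j = b j := by
    rw [← hq j]; ext k; simp [Matrix.mul_apply, Matrix.mulVec, dotProduct]
  have h2 := LinearMap.congr_fun hp (b j)
  rw [Matrix.mul_assoc]
  have h3 : (LinearMap.toMatrix' p * (A * Matrix.of fun j i => q i j)) i j =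
      (LinearMap.toMatrix' p *ᵥ (A * Matrix.of fun j i => q i j).col j) i := rfl
  rw [h3, h1, ← Matrix.toLin'_apply, Matrix.toLin'_toMatrix']
  simp only [LinearMap.coe_comp, Submodule.coe_subtype, Function.comp_apply] at h2
  rw [h2]
  simp [Matrix.one_apply, Finsupp.single_apply, eq_comm]

theorem finite_rank_lt {m n : Type*} [Fintype m] [Fintype n] [DecidableEq m] [DecidableEq n]
    (A : Matrix m n ℂ[X]) (a₀ : ℂ) :
    {a : ℂ | (A.map (eval a)).rank < (A.map (eval a₀)).rank}.Finite := by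
  obtain ⟨P, Q, h⟩ := exists_mul_mul_eq_one (A.map (eval a₀))
  have key : ∀ a : ℂ, eval a (P.map C * A * Q.map C).det = (P * A.map (eval a) * Q).det := by
    intro a
    have := RingHom.map_det (evalRingHom a) (P.map C * A * Q.map C)
    simp only [coe_evalRingHom, RingHom.mapMatrix_apply] at this
    rw [this]
    congr 1
    have e1 := Matrix.map_mul (L := P.map C * A) (M := Q.map C) (f := evalRingHom a)
    have e2 := Matrix.map_mul (L := P.map C) (M := A) (f := evalRingHom a)
    simp only [coe_evalRingHom] at e1 e2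
    rw [e1, e2]
    congr 2 <;> ext <;> simp
  have hD : (P.map C * A * Q.map C).det ≠ 0 := fun h0 => by
    have := key a₀
    rw [h0, h] at this
    simp at this
  refine (Polynomial.finite_setOfPred_isRoot hD).subset fun a ha => ?_
  by_contra hr
  have h1 : IsUnit (P * A.map (eval a) * Q) :=
    (Matrix.isUnit_iff_isUnit_det _).2 (isUnit_iff_ne_zero.2 (key a ▸ hr))
  have h2 := Matrix.rank_of_isUnit _ h1
  have h3 := (Matrix.rank_mul_le_left (P * A.map (eval a)) Q).trans (Matrix.rank_mul_le_right _ _)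
  rw [Fintype.card_fin] at h2
  exact absurd ha (not_lt.2 (h2 ▸ h3))

variable {G : Type*} [Group G] [Fintype G] {Ω : Type*} [Fintype Ω] [DecidableEq Ω] [MulAction G Ω]

variable (G) in
/-- `X ↦ ∑ g, tr (X P_{g⁻¹}) P_g` -/
noncomputable def gam (X : Matrix Ω Ω ℂ) : Matrix Ω Ω ℂ := ∑ g : G, matFun G X g⁻¹ • permMat G Ω g

theorem sum_conj_smul_permMat {f : G → ℂ} (hf : IsClassFunction G f) :
    ∑ g : G, conj (f g) • permMat G Ω g = ∑ χ : IrrCharacter G,
      (conj (classInner f χ) * (Nat.card G / (χ : G → ℂ) 1)) • idemMat Ω (χ : G → ℂ) := by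
  have h0 : (Nat.card G : ℂ) ≠ 0 := Nat.cast_ne_zero.2 Nat.card_pos.ne'
  have h1 : ∀ χ : IrrCharacter G, (conj (classInner f χ) * (Nat.card G / (χ : G → ℂ) 1)) •
      idemMat Ω (χ : G → ℂ) = ∑ g : G, conj (classInner f χ * (χ : G → ℂ) g) • permMat G Ω g := by
    intro χ
    have h2 : (χ : G → ℂ) 1 ≠ 0 := irr_one_ne_zero χ.2
    rw [idemMat, idem, smul_smul, Finset.smul_sum]
    refine Finset.sum_congr rfl fun g _ => ?_
    rw [smul_smul, map_mul]
    congr 1
    field_simp
  rw [Finset.sum_congr rfl fun χ _ => h1 χ, Finset.sum_comm]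
  refine Finset.sum_congr rfl fun g _ => ?_
  rw [← Finset.sum_smul, ← map_sum, ← classFun_apply_eq_sum hf]

variable (G Ω) in
/-- the irreducible constituents of the permutation character -/
abbrev Const := {χ : IrrCharacter G // classInner (permChar G Ω) χ ≠ 0}

variable (G Ω) in
/-- the span of the isotypic projections -/
noncomputable def zspan : Submodule ℂ (Matrix Ω Ω ℂ) :=
  Submodule.span ℂ (Set.range fun χ : Const G Ω => idemMat Ω (χ.1 : G → ℂ))

theorem idemMat_mem_zspan (χ : IrrCharacter G) : idemMat Ω (χ : G → ℂ) ∈ zspan G Ω := by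
  by_cases h : classInner (permChar G Ω) χ = 0
  · rw [(idemMat_eq_zero_iff χ.2).2 h]; exact zero_mem _
  · exact Submodule.subset_span ⟨⟨χ, h⟩, rfl⟩

theorem finrank_zspan : Module.finrank ℂ (zspan G Ω) = Nat.card (Const G Ω) := by
  classical
  rw [zspan, finrank_span_eq_card, Nat.card_eq_fintype_card]
  rw [Fintype.linearIndependent_iff]
  intro c hc χ
  have h1 := congrArg (· * idemMat Ω (χ.1 : G → ℂ)) hc
  simp only [Finset.sum_mul, smul_mul_assoc, zero_mul] at h1
  rw [Finset.sum_eq_single χ, idemMat_mul_self χ.1.2] at h1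
  · exact (smul_eq_zero.1 h1).resolve_right fun h => χ.2 ((idemMat_eq_zero_iff χ.1.2).1 h)
  · intro ψ _ hψ
    rw [idemMat_mul_of_ne ψ.1.2 χ.1.2 fun h => hψ (Subtype.ext (Subtype.ext h)), smul_zero]
  · simp

theorem gam_mem_zspan {X : Matrix Ω Ω ℂ} (hX : IsInvMat G X) : gam G X ∈ zspan G Ω := by
  have hf : IsClassFunction G fun g => conj (matFun G X g⁻¹) := fun g h => by
    have := isClassFunction_matFun hX g⁻¹ h
    simp only [_root_.mul_inv_rev, inv_inv, ← mul_assoc, this]
  have := sum_conj_smul_permMat (Ω := Ω) hf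
  simp only [Complex.conj_conj] at this
  rw [gam, this]
  exact sum_mem fun χ _ => Submodule.smul_mem _ _ (idemMat_mem_zspan χ)

theorem gam_one_mul_idemMat (χ : IrrCharacter G) : gam G (1 : Matrix Ω Ω ℂ) * idemMat Ω (χ : G → ℂ) =
    (conj (classInner (permChar G Ω) χ) * (Nat.card G / (χ : G → ℂ) 1)) • idemMat Ω (χ : G → ℂ) := by
  have hπ := isCharacter_perm (G := G) Ω
  have h1 : gam G (1 : Matrix Ω Ω ℂ) = ∑ g : G, conj (permChar G Ω g) • permMat G Ω g := by
    refine Finset.sum_congr rfl fun g _ => ?_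
    rw [matFun, one_mul, trace_permMat]
    congr 1
    exact char_inv hπ g
  rw [h1, sum_conj_smul_permMat (isClassFunction_of_isCharacter hπ), Finset.sum_mul,
    Finset.sum_eq_single χ, smul_mul_assoc, idemMat_mul_self χ.2]
  · intro ψ _ hψ
    rw [smul_mul_assoc, idemMat_mul_of_ne ψ.2 χ.2 fun h => hψ (Subtype.ext h), smul_zero]
  · simp

theorem coeff_ne_zero (χ : Const G Ω) :
    conj (classInner (permChar G Ω) χ.1) * (Nat.card G / (χ.1 : G → ℂ) 1) ≠ 0 :=
  mul_ne_zero ((_root_.map_ne_zero _).2 χ.2)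
    (div_ne_zero (Nat.cast_ne_zero.2 Nat.card_pos.ne') (irr_one_ne_zero χ.1.2))

theorem comm_of_mem_zspan {Y : Matrix Ω Ω ℂ} (hY : Y ∈ zspan G Ω) :
    IsInvMat G Y ∧ ∀ X, IsInvMat G X → X * Y = Y * X := by
  induction hY using Submodule.span_induction with
  | mem x hx =>
    obtain ⟨χ, rfl⟩ := hx
    exact ⟨isInvMat_idemMat (isClassFunction_of_isCharacter (isCharacter_of_isIrr χ.1.2)),
      fun X hX => hX.comm_idemMat _⟩
  | zero => exact ⟨fun _ _ _ => rfl, by simp⟩
  | add x y _ _ hx hy =>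
    exact ⟨fun g a b => by simp [hx.1 g a b, hy.1 g a b],
      fun X hX => by rw [mul_add, add_mul, hx.2 X hX, hy.2 X hX]⟩
  | smul c x _ hx =>
    exact ⟨fun g a b => by simp [hx.1 g a b],
      fun X hX => by rw [mul_smul_comm, smul_mul_assoc, hx.2 X hX]⟩

/-- the centre of the centraliser ring is spanned by the isotypic projections -/
theorem mem_zspan_of_comm
    (hγ : ∀ Y : Matrix Ω Ω ℂ, IsInvMat G Y → (∀ X, IsInvMat G X → X * Y = Y * X) →
      gam G Y = gam G 1 * Y)
    {Y : Matrix Ω Ω ℂ} (hY : IsInvMat G Y) (h : ∀ X, IsInvMat G X → X * Y = Y * X) :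
    Y ∈ zspan G Ω := by
  rw [← one_mul Y, ← sum_idemMat (G := G), Finset.sum_mul]
  refine sum_mem fun χ _ => ?_
  by_cases h0 : classInner (permChar G Ω) χ = 0
  · rw [(idemMat_eq_zero_iff χ.2).2 h0, zero_mul]; exact zero_mem _
  · have hi := isInvMat_idemMat (Ω := Ω) (isClassFunction_of_isCharacter (isCharacter_of_isIrr χ.2))
    have h1 := hγ _ (hi.mul hY) fun X hX => by
      rw [← mul_assoc, hX.comm_idemMat, mul_assoc, h X hX, mul_assoc]
    rw [← mul_assoc, gam_one_mul_idemMat, smul_mul_assoc] at h1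
    have h2 := gam_mem_zspan (hi.mul hY)
    rw [h1] at h2
    exact (Submodule.smul_mem_iff _ (coeff_ne_zero ⟨χ, h0⟩)).1 h2

theorem gam_apply (X : Matrix Ω Ω ℂ) (x y : Ω) : gam G X x y =
    ∑ a, ∑ b, X a b * Nat.card {g : G // g • (y, b) = (x, a)} := by
  classical
  simp only [gam, Matrix.sum_apply, Matrix.smul_apply, matFun_apply, permMat_apply, smul_eq_mul,
    Finset.sum_mul, Nat.card_eq_fintype_card, Fintype.card_subtype, Finset.card_filter]
  push_cast
  simp only [Finset.mul_sum]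
  rw [Finset.sum_comm]
  refine Finset.sum_congr rfl fun a _ => ?_
  rw [Finset.sum_comm]
  refine Finset.sum_congr rfl fun g _ => ?_
  rw [Finset.sum_eq_single (g⁻¹ • a)]
  · simp
  · intro b _ hb
    rw [if_neg, mul_zero]
    intro h
    have h2 : g • b = a := (Prod.ext_iff.1 h).2
    exact hb (by rw [← h2]; simp)
  · simp

end CfsgLib.St
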