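import Mathlib
import Cfsg.Agent.Lib.St.Center
import Cfsg.Agent.Lib.St.Count

/-!
# The generic Hecke algebra by matrices and its centre
-/

set_option autoImplicit false

namespace CfsgLib.St
open Cfsg CfsgLib.Char CfsgLib.Perm CfsgLib.RGD Matrix Polynomial

variable {ι κ : Type} [Fintype κ] [DecidableEq κ] (Φ : RootSys ι κ)

/-- the fundamental reflections as elements of the Weyl group -/
def sW (i : κ) : Φ.W := ⟨Φ.s i, Φ.s_mem_W i⟩

theorem sW_mul_self (i : κ) : sW Φ i * sW Φ i = 1 := Subtype.ext (Φ.s_mul_self i)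

theorem sW_inv (i : κ) : (sW Φ i)⁻¹ = sW Φ i := Subtype.ext (Φ.s_inv i)

/-- `s_i w` is longer than `w` -/
def Up (i : κ) (w : Φ.W) : Prop := Φ.Pos ((w : Equiv.Perm ι)⁻¹ (Φ.simple i))

theorem up_sW_mul (i : κ) (w : Φ.W) : Up Φ i (sW Φ i * w) ↔ ¬ Up Φ i w := by
  unfold Up
  change Φ.Pos ((Φ.s i * w)⁻¹ (Φ.simple i)) ↔ _
  rw [Φ.s_mul_inv_apply_simple w.2, Φ.pos_neg_iff, Φ.neg_iff_not_pos]

variable [Fintype Φ.W] [DecidableEq Φ.W]

section Generic
variable {R : Type*} [CommRing R]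

open _root_.Classical in
/-- left multiplication by `T_{s_i}` -/
noncomputable def Lm (t : R) (i : κ) : Matrix Φ.W Φ.W R := fun v u =>
  if Up Φ i v then (if u = sW Φ i * v then t else 0)
  else (if u = sW Φ i * v then 1 else 0) + (if u = v then t - 1 else 0)

variable (R) in
/-- inversion -/
def Jm : Matrix Φ.W Φ.W R := fun v u => if u = v⁻¹ then 1 else 0

open _root_.Classical in
theorem Lm_mulVec (t : R) (i : κ) (f : Φ.W → R) (v : Φ.W) : (Lm Φ t i *ᵥ f) v =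
    if Up Φ i v then t * f (sW Φ i * v) else f (sW Φ i * v) + (t - 1) * f v := by
  simp only [mulVec, dotProduct, Lm]
  split_ifs <;> simp [add_mul, Finset.sum_add_distrib]

theorem Jm_mulVec (f : Φ.W → R) (v : Φ.W) : (Jm Φ R *ᵥ f) v = f v⁻¹ := by
  simp [mulVec, dotProduct, Jm]

/-- left multiplication by the product of the `T_{s_i}` along a word -/
noncomputable def LL (t : R) (l : List κ) : Matrix Φ.W Φ.W R := (l.map (Lm Φ t)).prod

variable [Finite ι]

omit [Fintype Φ.W] [DecidableEq Φ.W] in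
theorem exists_red (w : Φ.W) : ∃ l : List κ, (w : Equiv.Perm ι) = Φ.wprod l ∧ l.length = Φ.len w := by
  obtain ⟨l, -, h⟩ := Φ.exists_reduced (J := Set.univ) (w := w) (by rw [← Φ.W_eq_WJ]; exact w.2)
  exact ⟨l, h⟩

/-- a reduced word -/
noncomputable def red (w : Φ.W) : List κ := (exists_red Φ w).choose

/-- the averaging map onto the centre -/
noncomputable def Gm (t : R) : Matrix Φ.W Φ.W R :=
  ∑ w : Φ.W, t ^ (Nat.card ι - Φ.len w) • (LL Φ t (red Φ w) * (Jm Φ R * LL Φ t (red Φ w) * Jm Φ R))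

/-- the commutator equations -/
noncomputable def Mm (t : R) : Matrix (κ × Φ.W) Φ.W R := fun p u =>
  (Lm Φ t p.1 - Jm Φ R * Lm Φ t p.1 * Jm Φ R) p.2 u

variable {R' : Type*} [CommRing R'] (φ : R →+* R')

omit [Finite ι] [Fintype Φ.W] in
theorem map_Lm (t : R) (i : κ) : (Lm Φ t i).map φ = Lm Φ (φ t) i := by
  ext v u
  simp only [Matrix.map_apply, Lm]
  split_ifs <;> simp

omit [Finite ι] [Fintype Φ.W] in
theorem map_Jm : (Jm Φ R).map φ = Jm Φ R' := by
  ext v u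
  simp only [Matrix.map_apply, Jm]
  split_ifs <;> simp

omit [Finite ι] in
theorem map_LL (t : R) (l : List κ) : (LL Φ t l).map φ = LL Φ (φ t) l := by
  induction l with
  | nil => simp [LL]
  | cons i l ih =>
    simp only [LL, List.map_cons, List.prod_cons] at ih ⊢
    rw [Matrix.map_mul, ih, map_Lm]

theorem map_Gm (t : R) : (Gm Φ t).map φ = Gm Φ (φ t) := by
  rw [← RingHom.mapMatrix_apply, Gm, map_sum]
  refine Finset.sum_congr rfl fun w _ => ?_
  rw [RingHom.mapMatrix_apply, Matrix.map_smul' _ _ _ (map_mul φ), Matrix.map_mul, Matrix.map_mul,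
    Matrix.map_mul, map_LL, map_Jm, map_pow]

omit [Finite ι] in
theorem map_Mm (t : R) : (Mm Φ t).map φ = Mm Φ (φ t) := by
  ext p u
  rw [Mm, ← map_Lm Φ φ, ← map_Jm Φ φ, ← Matrix.map_mul, ← Matrix.map_mul]
  simp only [Mm, Matrix.map_apply, Matrix.sub_apply, map_sub]

end Generic

/-- a set with a `W`-valued distance, a group acting transitively on the pairs of given distance -/
structure Bld (G Ω : Type*) [Group G] [Fintype Ω] [MulAction G Ω] (q : ℂ) where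
  δ : Ω → Ω → Φ.W
  inv : ∀ (g : G) x y, δ (g • x) (g • y) = δ x y
  trans : ∀ x y x' y', δ x y = δ x' y' → ∃ g : G, g • x = x' ∧ g • y = y'
  surj : ∀ x w, ∃ y, δ x y = w
  symm : ∀ x y, δ y x = (δ x y)⁻¹
  eq_one : ∀ x y, δ x y = 1 ↔ x = y
  step : ∀ i x y (f : Φ.W → ℂ),
    ∑ z, (if δ x z = sW Φ i then f (δ z y) else 0) = (Lm Φ q i *ᵥ f) (δ x y)

namespace Bld
variable {Φ} {G Ω : Type*} [Group G] [Fintype Ω] [MulAction G Ω] {q : ℂ}
  (b : Bld Φ G Ω q)

/-- the invariant matrix of a function on `W` -/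
def θ : (Φ.W → ℂ) →ₗ[ℂ] Matrix Ω Ω ℂ where
  toFun f := fun x y => f (b.δ x y)
  map_add' _ _ := rfl
  map_smul' _ _ := rfl

theorem θ_apply (f : Φ.W → ℂ) (x y : Ω) : b.θ f x y = f (b.δ x y) := rfl

theorem θ_injective [Nonempty Ω] : Function.Injective b.θ := by
  intro f f' h
  funext w
  obtain ⟨x⟩ := ‹Nonempty Ω›
  obtain ⟨y, rfl⟩ := b.surj x w
  exact congrFun (congrFun h x) y

theorem isInvMat_θ (f : Φ.W → ℂ) : IsInvMat G (b.θ f) := fun g x y => by
  simp only [θ_apply, b.inv]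

theorem exists_θ_eq [Nonempty Ω] {X : Matrix Ω Ω ℂ} (hX : IsInvMat G X) : ∃ f, b.θ f = X := by
  obtain ⟨x⟩ := ‹Nonempty Ω›
  choose y hy using b.surj x
  refine ⟨fun w => X x (y w), ?_⟩
  ext a c
  obtain ⟨g, h1, h2⟩ := b.trans x (y (b.δ a c)) a c (hy _)
  rw [θ_apply, ← hX g, h1, h2]

/-- the adjacency matrix of the orbital `w` -/
def A (w : Φ.W) : Matrix Ω Ω ℂ := b.θ (Pi.single w 1)

theorem A_apply (w : Φ.W) (x y : Ω) : b.A w x y = if b.δ x y = w then 1 else 0 := by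
  simp [A, θ_apply, Pi.single_apply]

theorem θ_eq_sum (f : Φ.W → ℂ) : b.θ f = ∑ w, f w • b.A w := by
  simp only [A, ← map_smul, ← map_sum]
  congr 1
  ext w
  simp [Pi.single_apply]

theorem A_one [DecidableEq Ω] : b.A 1 = 1 := by
  ext x y
  simp [A_apply, b.eq_one, Matrix.one_apply]

theorem A_mul_θ (i : κ) (f : Φ.W → ℂ) : b.A (sW Φ i) * b.θ f = b.θ (Lm Φ q i *ᵥ f) := by
  ext x y
  rw [θ_apply, ← b.step, Matrix.mul_apply]
  simp [A_apply, θ_apply]

theorem θ_Jm (f : Φ.W → ℂ) : b.θ (Jm Φ ℂ *ᵥ f) = (b.θ f)ᵀ := by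
  ext x y
  rw [θ_apply, Jm_mulVec, Matrix.transpose_apply, θ_apply, b.symm x y]

theorem A_transpose (w : Φ.W) : (b.A w)ᵀ = b.A w⁻¹ := by
  ext x y
  simp [A_apply, b.symm x y, inv_eq_iff_eq_inv]

theorem A_mul_A {i : κ} {w : Φ.W} (h : Up Φ i w) : b.A (sW Φ i) * b.A w = b.A (sW Φ i * w) := by
  change _ * b.θ _ = b.θ _
  rw [A_mul_θ]
  congr 1
  funext v
  rw [Lm_mulVec]
  have e : sW Φ i * v = w ↔ v = sW Φ i * w := by
    rw [← eq_inv_mul_iff_mul_eq, sW_inv]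
  by_cases h1 : v = sW Φ i * w
  · have h2 : ¬ Up Φ i v := by rw [h1, up_sW_mul]; exact not_not.2 h
    have h3 : v ≠ w := fun h3 => h2 (h3 ▸ h)
    simp [h2, Pi.single_apply, e, h3, ← h1]
  · by_cases h3 : v = w
    · subst h3
      simp [h, Pi.single_apply, e, h1]
    · simp [Pi.single_apply, e, h1, h3]

variable [Finite ι]

theorem A_mul_θ_of_red (l : List κ) : ∀ (w : Φ.W), (w : Equiv.Perm ι) = Φ.wprod l →
    l.length = Φ.len w → ∀ f, b.A w * b.θ f = b.θ (LL Φ q l *ᵥ f) := by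
  classical
  induction l with
  | nil =>
    intro w hw _ f
    obtain rfl : w = 1 := Subtype.ext hw
    simp [A_one, LL]
  | cons i l ih =>
    intro w hw hl f
    let v : Φ.W := ⟨Φ.wprod l, Φ.wprod_mem_W l⟩
    obtain rfl : w = sW Φ i * v := Subtype.ext (hw.trans (Φ.wprod_cons i l))
    have h1 := Φ.len_wprod_le l
    have h2 : Up Φ i v := by
      by_contra h2
      have := Φ.len_s_mul_of_neg v.2 (Φ.neg_iff_not_pos.2 h2)
      change l.length + 1 = Φ.len (Φ.s i * Φ.wprod l) at hl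
      change Φ.len (Φ.s i * Φ.wprod l) + 1 = Φ.len (Φ.wprod l) at this
      omega
    have h3 := Φ.len_s_mul_of_pos v.2 h2
    have h4 : l.length = Φ.len v := by
      change l.length + 1 = Φ.len (Φ.s i * v) at hl
      omega
    rw [← b.A_mul_A h2, Matrix.mul_assoc, ih v rfl h4, A_mul_θ, Matrix.mulVec_mulVec]
    simp [LL]

theorem A_mul_θ_red (w : Φ.W) (f : Φ.W → ℂ) : b.A w * b.θ f = b.θ (LL Φ q (red Φ w) *ᵥ f) :=
  b.A_mul_θ_of_red _ w (exists_red Φ w).choose_spec.1 (exists_red Φ w).choose_spec.2 f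

theorem θ_Gm (f : Φ.W → ℂ) : b.θ (Gm Φ q *ᵥ f) =
    ∑ w : Φ.W, q ^ (Nat.card ι - Φ.len w) • (b.A w * b.θ f * (b.A w)ᵀ) := by
  rw [Gm, Matrix.sum_mulVec, map_sum]
  refine Finset.sum_congr rfl fun w _ => ?_
  rw [Matrix.smul_mulVec, map_smul, ← Matrix.mulVec_mulVec, ← A_mul_θ_red, ← Matrix.mulVec_mulVec,
    ← Matrix.mulVec_mulVec, θ_Jm, ← A_mul_θ_red, θ_Jm, Matrix.transpose_mul,
    Matrix.transpose_transpose, Matrix.mul_assoc]

omit [Finite ι] in
theorem Mm_mulVec_eq_zero_iff [Nonempty Ω] (f : Φ.W → ℂ) :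
    Mm Φ q *ᵥ f = 0 ↔ ∀ i, b.A (sW Φ i) * b.θ f = b.θ f * b.A (sW Φ i) := by
  have h1 : ∀ i, b.θ ((Lm Φ q i - Jm Φ ℂ * Lm Φ q i * Jm Φ ℂ) *ᵥ f) =
      b.A (sW Φ i) * b.θ f - b.θ f * b.A (sW Φ i) := fun i => by
    rw [Matrix.sub_mulVec, map_sub, ← A_mul_θ, ← Matrix.mulVec_mulVec, ← Matrix.mulVec_mulVec, θ_Jm,
      ← A_mul_θ, θ_Jm, Matrix.transpose_mul, Matrix.transpose_transpose, A_transpose, sW_inv]
  constructor
  · intro h i
    rw [← sub_eq_zero, ← h1, (map_eq_zero_iff _ b.θ_injective)]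
    funext v
    exact congrFun h (i, v)
  · intro h
    funext p
    have := h1 p.1
    rw [h, sub_self, map_eq_zero_iff _ b.θ_injective] at this
    exact congrFun this p.2

theorem comm_of_comm_A [Nonempty Ω] {Y : Matrix Ω Ω ℂ}
    (h : ∀ i, b.A (sW Φ i) * Y = Y * b.A (sW Φ i)) {X : Matrix Ω Ω ℂ} (hX : IsInvMat G X) :
    X * Y = Y * X := by
  classical
  have h1 : ∀ w (hw : w ∈ Φ.W), b.A ⟨w, hw⟩ * Y = Y * b.A ⟨w, hw⟩ := by
    intro w hw
    have := Φ.W_induction_left (p := fun w => ∀ hw : w ∈ Φ.W, b.A ⟨w, hw⟩ * Y = Y * b.A ⟨w, hw⟩)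
      ?_ ?_ hw
    · exact this hw
    · intro _
      change b.A 1 * Y = Y * b.A 1
      rw [A_one, one_mul, mul_one]
    · intro v hv i hp ih _
      change b.A (sW Φ i * ⟨v, hv⟩) * Y = Y * b.A (sW Φ i * ⟨v, hv⟩)
      rw [← b.A_mul_A (w := ⟨v, hv⟩) hp, mul_assoc, ih hv, ← mul_assoc, h, mul_assoc]
  obtain ⟨f, rfl⟩ := b.exists_θ_eq hX
  rw [θ_eq_sum, Finset.sum_mul, Finset.mul_sum]
  exact Finset.sum_congr rfl fun w _ => by rw [smul_mul_assoc, mul_smul_comm, h1 w.1 w.2]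

theorem sum_A (w : Φ.W) (x : Ω) : ∑ y, b.A w x y = q ^ Φ.len w := by
  classical
  have h1 : ∀ w (hw : w ∈ Φ.W), b.A ⟨w, hw⟩ * b.θ 1 = q ^ Φ.len w • b.θ 1 := by
    intro w hw
    have := Φ.W_induction_left (p := fun w => ∀ hw : w ∈ Φ.W,
      b.A ⟨w, hw⟩ * b.θ 1 = q ^ Φ.len w • b.θ 1) ?_ ?_ hw
    · exact this hw
    · intro _
      change b.A 1 * _ = _
      rw [A_one, one_mul, Φ.len_one, pow_zero, one_smul]
    · intro v hv i hp ih _
      change b.A (sW Φ i * ⟨v, hv⟩) * _ = _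
      rw [← b.A_mul_A (w := ⟨v, hv⟩) hp, mul_assoc, ih hv, mul_smul_comm, A_mul_θ,
        Φ.len_s_mul_of_pos hv hp, pow_succ, mul_smul, ← map_smul b.θ q]
      congr 2
      funext u
      rw [Lm_mulVec]
      split_ifs <;> simp
  have := congrFun (congrFun (h1 w.1 w.2) x) x
  simpa [Matrix.mul_apply, θ_apply] using this

theorem card_smul_eq [Fintype G] (x y a c : Ω) :
    (Nat.card {g : G // g • (y, c) = (x, a)} : ℂ) * (Fintype.card Ω * q ^ Φ.len (b.δ y c)) =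
      if b.δ x a = b.δ y c then (Nat.card G : ℂ) else 0 := by
  classical
  split_ifs with h
  · obtain ⟨g, h1, h2⟩ := b.trans y c x a h.symm
    have e1 : Nat.card {g : G // g • (y, c) = (x, a)} = Nat.card (MulAction.stabilizer G (y, c)) := by
      refine Nat.card_congr ((Equiv.mulLeft g⁻¹).subtypeEquiv fun k => ?_)
      rw [MulAction.mem_stabilizer_iff, Equiv.coe_mulLeft, mul_smul, inv_smul_eq_iff]
      simp [h1, h2]
    have e2 : (Nat.card (MulAction.orbit G (y, c)) : ℂ) = Fintype.card Ω * q ^ Φ.len (b.δ y c) := by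
      have : MulAction.orbit G (y, c) = {p : Ω × Ω | b.δ p.1 p.2 = b.δ y c} := by
        ext p
        constructor
        · rintro ⟨k, rfl⟩
          exact b.inv k y c
        · intro hp
          obtain ⟨k, h3, h4⟩ := b.trans y c p.1 p.2 hp.symm
          exact ⟨k, Prod.ext h3 h4⟩
      rw [this, Nat.card_eq_fintype_card, Fintype.card_subtype, Finset.card_filter,
        Fintype.sum_prod_type]
      push_cast
      rw [Finset.sum_congr rfl (g := fun _ => q ^ Φ.len (b.δ y c)) fun x _ => by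
        rw [← b.sum_A (b.δ y c) x]; simp [A_apply]]
      simp
    rw [e1, ← e2, ← Nat.cast_mul, mul_comm, ← Nat.card_prod]
    congr 1
    exact Nat.card_congr (MulAction.orbitProdStabilizerEquivGroup G (y, c))
  · rw [mul_eq_zero]
    left
    rw [Nat.cast_eq_zero, Nat.card_eq_zero]
    refine Or.inl ⟨fun g => h ?_⟩
    have h1 : g.1 • y = x := (Prod.ext_iff.1 g.2).1
    have h2 : g.1 • c = a := (Prod.ext_iff.1 g.2).2
    rw [← b.inv g.1 y c, h1, h2]

theorem smul_gam [Fintype G] [DecidableEq Ω] (X : Matrix Ω Ω ℂ) :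
    (Fintype.card Ω * q ^ Nat.card ι) • gam G X =
      (Nat.card G : ℂ) • ∑ w : Φ.W, q ^ (Nat.card ι - Φ.len w) • (b.A w * X * (b.A w)ᵀ) := by
  ext x y
  simp only [Matrix.smul_apply, gam_apply, Matrix.sum_apply, Matrix.mul_apply,
    Matrix.transpose_apply, smul_eq_mul, Finset.mul_sum, Finset.sum_mul, A_apply]
  rw [Finset.sum_comm]
  conv_rhs => rw [Finset.sum_comm]
  refine Finset.sum_congr rfl fun c _ => ?_
  conv_rhs => rw [Finset.sum_comm]
  refine Finset.sum_congr rfl fun a _ => ?_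
  rw [Finset.sum_eq_single (b.δ y c)]
  · have h1 : Φ.len (b.δ y c) ≤ Nat.card ι := Set.ncard_le_card _
    have h2 := b.card_smul_eq x y a c
    have h3 : q ^ Nat.card ι = q ^ (Nat.card ι - Φ.len (b.δ y c)) * q ^ Φ.len (b.δ y c) := by
      rw [← pow_add, Nat.sub_add_cancel h1]
    rw [h3]
    split_ifs at h2 ⊢ with h4 h5 h5
    · linear_combination (q ^ (Nat.card ι - Φ.len (b.δ y c)) * X a c) * h2
    · exact absurd rfl h5
    · linear_combination (q ^ (Nat.card ι - Φ.len (b.δ y c)) * X a c) * h2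
    · exact absurd rfl h5
  · intro w _ hw
    rw [if_neg (Ne.symm hw)]; simp
  · simp

variable [Fintype G] [DecidableEq Ω] [Nonempty Ω]

include b in
theorem gam_eq_of_comm (hq : q ≠ 0) (Y : Matrix Ω Ω ℂ)
    (h : ∀ X, IsInvMat G X → X * Y = Y * X) : gam G Y = gam G 1 * Y := by
  have h0 : (Fintype.card Ω : ℂ) * q ^ Nat.card ι ≠ 0 :=
    mul_ne_zero (Nat.cast_ne_zero.2 Fintype.card_ne_zero) (pow_ne_zero _ hq)
  apply smul_right_injective _ h0
  simp only
  rw [← smul_mul_assoc, b.smul_gam, b.smul_gam, smul_mul_assoc, Finset.sum_mul]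
  congr 1
  refine Finset.sum_congr rfl fun w _ => ?_
  rw [smul_mul_assoc, mul_one, mul_assoc, mul_assoc, h (b.A w)ᵀ (b.isInvMat_θ _).transpose]

theorem θ_Gm_eq (f : Φ.W → ℂ) : b.θ (Gm Φ q *ᵥ f) =
    ((Nat.card G : ℂ)⁻¹ * (Fintype.card Ω * q ^ Nat.card ι)) • gam G (b.θ f) := by
  have h0 : (Nat.card G : ℂ) ≠ 0 := Nat.cast_ne_zero.2 Nat.card_pos.ne'
  rw [mul_smul, b.smul_gam, smul_smul, inv_mul_cancel₀ h0, one_smul, θ_Gm]

theorem map_ker (hq : q ≠ 0) : (LinearMap.ker (Mm Φ q).mulVecLin).map b.θ = zspan G Ω := by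
  ext Y
  constructor
  · rintro ⟨f, hf, rfl⟩
    exact mem_zspan_of_comm (fun Y _ h => b.gam_eq_of_comm hq Y h) (b.isInvMat_θ f)
      fun X hX => b.comm_of_comm_A ((b.Mm_mulVec_eq_zero_iff f).1 hf) hX
  · intro hY
    obtain ⟨h1, h2⟩ := comm_of_mem_zspan hY
    obtain ⟨f, rfl⟩ := b.exists_θ_eq h1
    exact ⟨f, (b.Mm_mulVec_eq_zero_iff f).2 fun i => h2 _ (b.isInvMat_θ _), rfl⟩

theorem map_range (hq : q ≠ 0) : (LinearMap.range (Gm Φ q).mulVecLin).map b.θ = zspan G Ω := by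
  apply le_antisymm
  · rintro _ ⟨_, ⟨f, rfl⟩, rfl⟩
    rw [Matrix.mulVecLin_apply, θ_Gm_eq]
    exact Submodule.smul_mem _ _ (gam_mem_zspan (b.isInvMat_θ f))
  · rw [zspan, Submodule.span_le]
    rintro _ ⟨χ, rfl⟩
    obtain ⟨h1, h2⟩ := comm_of_mem_zspan (idemMat_mem_zspan (Ω := Ω) χ.1)
    obtain ⟨f, hf⟩ := b.exists_θ_eq h1
    have h3 := b.θ_Gm_eq f
    rw [hf, b.gam_eq_of_comm hq _ h2, gam_one_mul_idemMat, smul_smul] at h3
    have h4 : b.θ (Gm Φ q *ᵥ f) ∈ (LinearMap.range (Gm Φ q).mulVecLin).map b.θ :=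
      ⟨_, ⟨f, rfl⟩, rfl⟩
    rw [h3] at h4
    refine (Submodule.smul_mem_iff _ (mul_ne_zero (mul_ne_zero (inv_ne_zero ?_) ?_)
      (coeff_ne_zero χ))).1 h4
    · exact Nat.cast_ne_zero.2 Nat.card_pos.ne'
    · exact mul_ne_zero (Nat.cast_ne_zero.2 Fintype.card_ne_zero) (pow_ne_zero _ hq)

include b in
theorem rank_Gm (hq : q ≠ 0) : (Gm Φ q).rank = Nat.card (Const G Ω) := by
  rw [← finrank_zspan, ← b.map_range hq, Matrix.rank]
  exact (Submodule.equivMapOfInjective _ b.θ_injective _).finrank_eq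

include b in
theorem rank_Mm (hq : q ≠ 0) : (Mm Φ q).rank + Nat.card (Const G Ω) = Fintype.card Φ.W := by
  rw [← finrank_zspan, ← b.map_ker hq, Matrix.rank,
    ← (Submodule.equivMapOfInjective _ b.θ_injective _).finrank_eq,
    LinearMap.finrank_range_add_finrank_ker, Module.finrank_fintype_fun_eq_card]

include b in
theorem Mm_mul_Gm (hq : q ≠ 0) : Mm Φ q * Gm Φ q = 0 := by
  have h := Submodule.map_injective_of_injective b.θ_injective
    ((b.map_range hq).trans (b.map_ker hq).symm)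
  ext p u
  have h1 : Gm Φ q *ᵥ Pi.single u 1 ∈ LinearMap.ker (Mm Φ q).mulVecLin := h ▸ ⟨_, rfl⟩
  rw [LinearMap.mem_ker, Matrix.mulVecLin_apply, Matrix.mulVec_mulVec] at h1
  simpa using congrFun h1 p

end Bld

/-- the rank of the averaging map and the corank of the commutator equations do not depend on the
parameter -/
theorem rank_Gm_add_le [Finite ι] (h : {q : ℂ | Mm Φ q * Gm Φ q = 0}.Infinite) (a a' : ℂ) :
    (Mm Φ a').rank + (Gm Φ a).rank ≤ Fintype.card Φ.W := by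
  have h1 : ∀ c : ℂ, (Mm Φ (X : ℂ[X])).map (eval c) = Mm Φ c := fun c => by
    have := map_Mm Φ (evalRingHom c) X
    simpa using this
  have h2 : ∀ c : ℂ, (Gm Φ (X : ℂ[X])).map (eval c) = Gm Φ c := fun c => by
    have := map_Gm Φ (evalRingHom c) X
    simpa using this
  have h3 : ∀ c : ℂ, (Mm Φ (X : ℂ[X]) * Gm Φ (X : ℂ[X]) : Matrix (κ × Φ.W) Φ.W ℂ[X]).map (eval c) =
      Mm Φ c * Gm Φ c := fun c => by
    have := Matrix.map_mul (L := Mm Φ (X : ℂ[X])) (M := Gm Φ X) (f := evalRingHom c)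
    rw [coe_evalRingHom, h1, h2] at this
    exact this
  have h4 : (Mm Φ (X : ℂ[X]) * Gm Φ (X : ℂ[X]) : Matrix (κ × Φ.W) Φ.W ℂ[X]) = 0 := by
    ext1 p u
    refine Polynomial.eq_zero_of_infinite_isRoot _ (h.mono fun c hc => ?_)
    have := congrFun (congrFun ((h3 c).trans hc) p) u
    exact this
  obtain ⟨c, hc⟩ := ((finite_rank_lt (Mm Φ (X : ℂ[X])) a').union
    (finite_rank_lt (Gm Φ (X : ℂ[X])) a)).exists_notMem
  simp only [Set.mem_union, Set.mem_ofPred_eq, not_or, not_lt, h1, h2] at hc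
  have h5 : Mm Φ c * Gm Φ c = 0 := by rw [← h3, h4]; ext; simp
  exact (add_le_add hc.1 hc.2).trans (Matrix.rank_add_rank_le_card_of_mul_eq_zero h5)

/-- the Weyl group acting on itself -/
def weylBld : Bld Φ Φ.W Φ.W 1 where
  δ x y := x⁻¹ * y
  inv g x y := by simp [mul_assoc]
  trans x y x' y' h := ⟨x' * x⁻¹, by simp, by rw [smul_eq_mul, mul_assoc, h]; simp⟩
  surj x w := ⟨x * w, by simp⟩
  symm x y := by simp
  eq_one x y := inv_mul_eq_one
  step i x y f := by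
    rw [Lm_mulVec, Finset.sum_eq_single (x * sW Φ i)]
    · simp [sW_inv, mul_assoc]
    · intro z _ hz
      rw [if_neg fun h => hz (by rw [← h]; simp)]
    · simp

end CfsgLib.St
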