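import Mathlib
import Cfsg.Agent.Lib.St.Hecke
import Cfsg.Agent.Lib.St.Chev

/-!
# The Hecke algebra of a group with a system of root elements
-/

set_option autoImplicit false

namespace CfsgLib.St
open Cfsg CfsgLib.Char CfsgLib.Perm CfsgLib.RGD Matrix

variable {ι κ : Type} [Fintype κ] [DecidableEq κ] {Φ : RootSys ι κ} [Finite ι]
  {F : Type*} [Field F] {G : Type*} [Group G] {S : StSys Φ F G}

theorem exists_cell (htop : S.grp = ⊤) (g : G) : ∃ w : Φ.W, g ∈ S.cell w := by
  obtain ⟨w, hw, h⟩ := StSys.exists_mem_cell (S := S) (g := g) (by rw [htop]; trivial)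
  exact ⟨⟨w, hw⟩, h⟩

/-- the element of the Weyl group whose cell contains `g` -/
noncomputable def dl (htop : S.grp = ⊤) (g : G) : Φ.W := (exists_cell htop g).choose

theorem mem_cell_dl (htop : S.grp = ⊤) (g : G) : g ∈ S.cell (dl htop g) :=
  (exists_cell htop g).choose_spec

theorem dl_eq_iff (hS : S.Nondeg) (htop : S.grp = ⊤) {g : G} {w : Φ.W} :
    dl htop g = w ↔ g ∈ S.cell w :=
  ⟨fun h => h ▸ mem_cell_dl htop g,
    fun h => Subtype.ext (hS.cell_unique (dl htop g).2 w.2 (mem_cell_dl htop g) h)⟩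

theorem dl_mul (hS : S.Nondeg) (htop : S.grp = ⊤) {b b' : G} (hb : b ∈ S.B) (hb' : b' ∈ S.B) (g : G) :
    dl htop (b * g * b') = dl htop g :=
  (dl_eq_iff hS htop).2
    (StSys.mul_mem_cell_right (StSys.mul_mem_cell_left hb (mem_cell_dl htop g)) hb')

/-- the distance of two chambers -/
noncomputable def dist (htop : S.grp = ⊤) (x y : G ⧸ S.B) : Φ.W := dl htop (x.out⁻¹ * y.out)

theorem dist_mk (hS : S.Nondeg) (htop : S.grp = ⊤) (x y : G) :
    dist htop (x : G ⧸ S.B) (y : G ⧸ S.B) = dl htop (x⁻¹ * y) := by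
  obtain ⟨b, hb⟩ := QuotientGroup.mk_out_eq_mul S.B x
  obtain ⟨b', hb'⟩ := QuotientGroup.mk_out_eq_mul S.B y
  rw [dist, hb, hb', ← dl_mul hS htop (inv_mem b.2) b'.2 (x⁻¹ * y)]
  congr 1
  group

/-- the cells met by `n_i⁻¹ X_i g` when `s_i w` is shorter than `w` -/
theorem exists_cell_down (i : κ) {w : Equiv.Perm ι} (hw : w ∈ Φ.W)
    (hn : ¬ Φ.Pos (w⁻¹ (Φ.simple i))) {g : G} (hg : g ∈ S.cell w) :
    ∃ c : F, (S.n (Φ.simple i) 1)⁻¹ * (S.x (Φ.simple i) c)⁻¹ * g ∈ S.cell (Φ.s i * w) ∧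
      ∀ t, t ≠ c → (S.n (Φ.simple i) 1)⁻¹ * (S.x (Φ.simple i) t)⁻¹ * g ∈ S.cell w := by
  obtain ⟨b, hb, n₀, hn₀, ha₀, b', hb', rfl⟩ := hg
  obtain ⟨u, hu, a, ha, rfl⟩ := S.mem_B_iff.1 hb
  obtain ⟨c, y, hy, rfl⟩ := S.exists_x_mul Φ.closed_pos (fun _ h => h) (Φ.simple i) hu
  have hn1 : a * n₀ ∈ S.N := mul_mem (S.H_le_N ha) hn₀
  have ha1 : S.Acts (a * n₀) w := by simpa using (S.acts_of_mem_H ha).mul ha₀ hw
  have hs := Φ.s_mem_W i
  have hn2 : (S.n (Φ.simple i) 1)⁻¹ * (a * n₀) ∈ S.N := mul_mem (inv_mem (S.n_one_mem_N _)) hn1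
  have hai : S.Acts (S.n (Φ.simple i) 1)⁻¹ (Φ.s i) := by
    simpa [Φ.s_inv] using (S.acts_n_simple i one_ne_zero).inv hs
  have ha2 : S.Acts ((S.n (Φ.simple i) 1)⁻¹ * (a * n₀)) (Φ.s i * w) := hai.mul ha1 hw
  have key : ∀ (t : F) (v : Equiv.Perm ι),
      (S.n (Φ.simple i) 1)⁻¹ * S.x (Φ.simple i) (-t + c) * (a * n₀) ∈ S.cell v →
      (S.n (Φ.simple i) 1)⁻¹ * (S.x (Φ.simple i) t)⁻¹ * (S.x (Φ.simple i) c * y * a * n₀ * b') ∈
        S.cell v := by
    intro t v h
    have h1 := S.x_conj_mem_UU (Ψ := {r | Φ.Pos r} \ {Φ.simple i}) (r := Φ.simple i)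
      (fun s hs => ⟨Φ.ne_neg_of_pos (Φ.pos_simple i) hs.1, fun k hk =>
        ⟨hk.pos (Φ.pos_simple i) hs.1, hk.ne_simple (Φ.pos_simple i) hs.1 i⟩⟩) (-t + c) hy
    have h2 := S.n_conj_mem_U_diff i (neg_ne_zero.2 one_ne_zero) h1
    have h3 := StSys.mul_mem_cell_right (StSys.mul_mem_cell_left
      (S.U_le_B (S.UU_le_U (fun _ h => h.1) h2)) h) hb'
    rw [S.n_neg, S.x_add, S.x_neg] at h3
    simpa [mul_assoc] using h3
  refine ⟨c, key c _ ?_, fun t ht => key t _ ?_⟩
  · rw [neg_add_cancel, S.x_zero, mul_one]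
    exact StSys.mem_cell_of_acts hn2 ha2
  · obtain ⟨l, hl, e⟩ := hai.exists_conj_x (Φ.simple i)
    have h0 : l * (-t + c) ≠ 0 := mul_ne_zero hl (by rw [neg_add_eq_sub]; exact sub_ne_zero.2 ht.symm)
    have e2 := e (-t + c)
    rw [Φ.s_simple, S.x_neg_root_eq _ h0] at e2
    have hp : Φ.Pos ((Φ.s i * w)⁻¹ (Φ.simple i)) := by
      rw [Φ.s_mul_inv_apply_simple hw, Φ.pos_neg_iff, Φ.neg_iff_not_pos]; exact hn
    have h1 := StSys.mul_mem_cell_left (S.x_mem_B (Φ.pos_simple i) (l * (-t + c))⁻¹)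
      (StSys.n_x_mul_mem_cell i (neg_ne_zero.2 (inv_ne_zero h0)) (mul_mem hs hw) hp hn2 ha2
        (l * (-t + c))⁻¹)
    rw [← mul_assoc (Φ.s i), Φ.s_mul_self, one_mul, ← mul_assoc (S.x _ _), ← mul_assoc (S.x _ _),
      ← e2] at h1
    simpa [mul_assoc] using h1

theorem sum_adjacent [Fintype F] [Fintype (G ⧸ S.B)] [DecidableEq Φ.W] (hS : S.Nondeg)
    (htop : S.grp = ⊤) (i : κ) (x : G) (φ : G ⧸ S.B → ℂ) :
    ∑ z, (if dist htop x z = sW Φ i then φ z else 0) =
      ∑ t : F, φ (x * (S.x (Φ.simple i) t * S.n (Φ.simple i) 1) : G) := by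
  rw [← Finset.sum_filter]
  symm
  have hs := Φ.s_mem_W i
  have hI : Φ.Inv (Φ.s i)⁻¹ = {Φ.simple i} := by rw [Φ.s_inv, Φ.Inv_s]
  refine Finset.sum_bij (fun t _ => ((x * (S.x (Φ.simple i) t * S.n (Φ.simple i) 1) : G) : G ⧸ S.B))
    ?_ ?_ ?_ fun _ _ => rfl
  · intro t _
    rw [Finset.mem_filter, dist_mk hS, inv_mul_cancel_left, dl_eq_iff hS]
    exact ⟨Finset.mem_univ _, StSys.mul_mem_cell_left (S.x_mem_B (Φ.pos_simple i) t)
      (StSys.mem_cell_of_acts (S.n_one_mem_N _) (S.acts_n_simple i one_ne_zero))⟩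
  · intro t _ t' _ e
    rw [QuotientGroup.eq] at e
    have := u_n_b_unique hS hs (S.acts_n_simple i one_ne_zero) e (one_mem _)
      (u := S.x (Φ.simple i) t) (u' := S.x (Φ.simple i) t') (by rw [hI]; exact S.x_mem_X _ _)
      (by rw [hI]; exact S.x_mem_X _ _) (by group)
    exact hS.x_injective _ this.1
  · intro z hz
    induction z using QuotientGroup.induction_on with
    | _ z =>
      rw [Finset.mem_filter, dist_mk hS, dl_eq_iff hS] at hz
      obtain ⟨u, hu, b, hb, e⟩ := exists_eq_u_n_b hS (S.n_one_mem_N _)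
        (S.acts_n_simple i one_ne_zero) hz.2
      rw [hI] at hu
      obtain ⟨t, rfl⟩ := S.mem_X_iff.1 hu
      refine ⟨t, Finset.mem_univ _, ?_⟩
      rw [QuotientGroup.eq, _root_.mul_inv_rev, mul_assoc, e]
      simpa [mul_assoc] using hb

/-- the building of the group -/
noncomputable def grpBld [Fintype F] [Fintype (G ⧸ S.B)] [Fintype Φ.W] [DecidableEq Φ.W]
    (hS : S.Nondeg) (htop : S.grp = ⊤) : Bld Φ G (G ⧸ S.B) (Fintype.card F) where
  δ := dist htop
  inv g x y := by
    induction x using QuotientGroup.induction_on with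
    | _ x =>
      induction y using QuotientGroup.induction_on with
      | _ y => simp [dist_mk hS, mul_assoc]
  trans x y x' y' h := by
    induction x using QuotientGroup.induction_on with | _ x => ?_
    induction y using QuotientGroup.induction_on with | _ y => ?_
    induction x' using QuotientGroup.induction_on with | _ x' => ?_
    induction y' using QuotientGroup.induction_on with | _ y' => ?_
    rw [dist_mk hS, dist_mk hS, dl_eq_iff hS] at h
    have hw := (dl htop (x'⁻¹ * y')).2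
    obtain ⟨b₁, hb₁, b₂, hb₂, e⟩ := (hS.mem_cell_iff (nw_mem _) (acts_nw hw)).1 h
    obtain ⟨b₃, hb₃, b₄, hb₄, e'⟩ := (hS.mem_cell_iff (nw_mem _) (acts_nw hw)).1
      (mem_cell_dl htop (x'⁻¹ * y'))
    refine ⟨x' * b₃ * b₁⁻¹ * x⁻¹, ?_, ?_⟩
    · rw [MulAction.Quotient.smul_mk, QuotientGroup.eq]
      simpa [mul_assoc] using mul_mem hb₁ (inv_mem hb₃)
    · rw [MulAction.Quotient.smul_mk, QuotientGroup.eq, smul_eq_mul, mul_assoc _ x⁻¹, e]
      generalize nw S (dl htop (x'⁻¹ * y')) = n at e'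
      rw [inv_mul_eq_iff_eq_mul.1 e']
      simpa [mul_assoc] using mul_mem (inv_mem hb₂) hb₄
  surj x w := by
    induction x using QuotientGroup.induction_on with | _ x => ?_
    exact ⟨(x * nw S w : G), by
      rw [dist_mk hS, inv_mul_cancel_left, dl_eq_iff hS]; exact nw_mem_cell w.2⟩
  symm x y := by
    induction x using QuotientGroup.induction_on with | _ x => ?_
    induction y using QuotientGroup.induction_on with | _ y => ?_
    rw [dist_mk hS, dist_mk hS, dl_eq_iff hS]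
    simpa using StSys.inv_mem_cell (dl htop (x⁻¹ * y)).2 (mem_cell_dl htop _)
  eq_one x y := by
    induction x using QuotientGroup.induction_on with | _ x => ?_
    induction y using QuotientGroup.induction_on with | _ y => ?_
    rw [dist_mk hS, dl_eq_iff hS, QuotientGroup.eq, OneMemClass.coe_one, hS.cell_one]
    rfl
  step i x y f := by
    induction x using QuotientGroup.induction_on with | _ x => ?_
    induction y using QuotientGroup.induction_on with | _ y => ?_
    rw [sum_adjacent hS htop i x fun z => f (dist htop z y), dist_mk hS, Lm_mulVec]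
    simp only [dist_mk hS, _root_.mul_inv_rev, mul_assoc _ x⁻¹ y]
    have hw := (dl htop (x⁻¹ * y)).2
    split_ifs with h
    · rw [Finset.sum_congr rfl (g := fun _ => f (sW Φ i * dl htop (x⁻¹ * y)))]
      · simp
      · intro t _
        congr 1
        rw [dl_eq_iff hS, ← S.n_neg, mul_assoc]
        exact StSys.n_mul_mem_cell_of_pos i (neg_ne_zero.2 one_ne_zero) hw h
          (StSys.mul_mem_cell_left (inv_mem (S.x_mem_B (Φ.pos_simple i) t)) (mem_cell_dl htop _))
    · classical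
      obtain ⟨c, h1, h2⟩ := exists_cell_down i hw h (mem_cell_dl htop (x⁻¹ * y))
      rw [← Finset.add_sum_erase _ _ (Finset.mem_univ c),
        (dl_eq_iff hS htop (w := sW Φ i * dl htop (x⁻¹ * y))).2 h1,
        Finset.sum_congr rfl (g := fun _ => f (dl htop (x⁻¹ * y))) fun t ht => by
          rw [(dl_eq_iff hS htop).2 (h2 t (Finset.ne_of_mem_erase ht))]]
      rw [Finset.sum_const, Finset.card_erase_of_mem (Finset.mem_univ c), nsmul_eq_mul,
        Finset.card_univ, Nat.cast_sub Fintype.card_pos, Nat.cast_one]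

open CfsgLib.Chev CfsgLib.Weyl Cfsg.Lie in
/-- the number of irreducible constituents of the principal series of a Chevalley group -/
theorem card_const_chev {D : ChevalleyDatum} [Good D] (h : RtOK D) (F : Type*) [Field F] [Finite F] :
    Nat.card {χ : IrrCharacter (D.group F) // ∃ φ : D.group F → ℂ, IsCharacter _ φ ∧
      fixedPointCharacter (chevSys h F).B = (χ : D.group F → ℂ) + φ} =
      Nat.card (ConjClasses (rootSys h).W) := by
  classical
  haveI := Fintype.ofFinite F
  haveI := Fintype.ofFinite (D.group F)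
  haveI := Fintype.ofFinite (rootSys h).W
  haveI := Fintype.ofFinite (D.group F ⧸ (chevSys h F).B)
  have hinf : {q : ℂ | Mm (rootSys h) q * Gm (rootSys h) q = 0}.Infinite := by
    refine Set.infinite_of_injective_forall_mem (f := fun k : ℕ => ((2 ^ (k + 1) : ℕ) : ℂ))
      (fun a b e => ?_) fun k => ?_
    · have := Nat.pow_right_injective le_rfl (Nat.cast_injective (R := ℂ) e)
      omega
    · haveI := Fintype.ofFinite (GaloisField 2 (k + 1))
      haveI := Fintype.ofFinite (D.group (GaloisField 2 (k + 1)))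
      haveI := Fintype.ofFinite (D.group (GaloisField 2 (k + 1)) ⧸
        (chevSys h (GaloisField 2 (k + 1))).B)
      have := (grpBld (chevSys_nondeg h (GaloisField 2 (k + 1))) (chevSys_grp h _)).Mm_mul_Gm
        (Nat.cast_ne_zero.2 Fintype.card_ne_zero)
      rwa [← Nat.card_eq_fintype_card, GaloisField.card 2 (k + 1) k.succ_ne_zero] at this
  have hq : (Fintype.card F : ℂ) ≠ 0 := Nat.cast_ne_zero.2 Fintype.card_ne_zero
  have h1 := (grpBld (chevSys_nondeg h F) (chevSys_grp h F)).rank_Gm hq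
  have h2 := (grpBld (chevSys_nondeg h F) (chevSys_grp h F)).rank_Mm hq
  have h3 := (weylBld (rootSys h)).rank_Gm one_ne_zero
  have h4 := (weylBld (rootSys h)).rank_Mm one_ne_zero
  have h5 := rank_Gm_add_le _ hinf 1 (Fintype.card F)
  have h6 := rank_Gm_add_le _ hinf (Fintype.card F) 1
  have h7 : Nat.card (Const (rootSys h).W (rootSys h).W) =
      Nat.card (ConjClasses (rootSys h).W) := by
    rw [← card_irr_eq_card_conjClasses]
    refine Nat.card_congr (Equiv.subtypeUnivEquiv fun χ => ?_)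
    have : permChar (rootSys h).W (rootSys h).W = regChar _ := by
      rw [← char_leftRegular_eq]
      funext g
      exact (char_ofMulAction _ g).symm
    rw [this, classInner_regChar_left]
    exact (_root_.map_ne_zero _).2 (irr_one_ne_zero χ.2)
  rw [← h7, show Nat.card (Const (rootSys h).W (rootSys h).W) =
    Nat.card (Const (D.group F) (D.group F ⧸ (chevSys h F).B)) by omega]
  refine Nat.card_congr (Equiv.subtypeEquivRight fun χ => ⟨?_, fun hχ => ?_⟩)
  · rintro ⟨φ, hφ, e⟩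
    change classInner (fixedPointCharacter (chevSys h F).B) χ ≠ 0
    obtain ⟨n, hn⟩ := exists_classInner_eq_nat hφ (isCharacter_of_isIrr χ.2)
    rw [e, classInner_add_left, classInner_irr_self χ.2, hn]
    exact_mod_cast (by omega : 1 + n ≠ 0)
  · exact ⟨_, isCharacter_sub_of_inner_ne_zero (isCharacter_perm _) χ.2 hχ, by
      rw [add_sub_cancel]; rfl⟩

end CfsgLib.St
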